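import Cfsg.Agent.Nodes.WittInst
import Cfsg.Agent.S0287
import Cfsg.Agent.H311.K547.Val
import Cfsg.Agent.ClosedExc.Frame

/-!
# MK, the row of `PΩ⁺_{2m}(q)`: the index of the monomial group (helper76)

`exists_idx`.
-/

set_option autoImplicit false
set_option linter.unusedSectionVars false

namespace Cfsg.Agent.MK.GDp

open Cfsg Subgroup Cfsg.Agent.Nodes Cfsg.Agent.Nodes.WittInst Cfsg.Agent.TitsThree.WBridge
  Cfsg.Agent.LieClassical.OrthCore Cfsg.Agent.LieClassical.OrthFinite Cfsg.Agent.LieClassical.OrthForms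
open Cfsg.Agent.Nodes.WittRoot (Mono)
open Cfsg.Agent.Nodes.WittRGD (Tor)
open Cfsg.Agent.H311.K547 (E2 e2_pow e2_pow_odd odd_int)

theorem relIndex_dvd {G : Type} [Group G] [Finite G] {K H L : Subgroup G} (hK : K ≤ L) (hH : H ≤ L)
    (hn : H ≤ normalizer (K : Set G)) : H.relIndex K ∣ H.relIndex L := by
  have h1 := ClosedExc.Prod.card_sup_mul' hn
  have h2 := relIndex_mul_relIndex ⊥ _ _ bot_le (inf_le_left : K ⊓ H ≤ K)
  have h3 := relIndex_mul_relIndex ⊥ _ _ bot_le (le_sup_right : H ≤ K ⊔ H)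
  rw [relIndex_bot_left, relIndex_bot_left, inf_relIndex_left] at h2
  rw [relIndex_bot_left, relIndex_bot_left] at h3
  rw [← h2, ← h3] at h1
  have h4 : H.relIndex K = H.relIndex (K ⊔ H) :=
    Nat.eq_of_mul_eq_mul_left (Nat.mul_pos (Nat.card_pos (α := H)) (Nat.card_pos (α := ↥(K ⊓ H)))) (by linarith)
  exact ⟨_, h4 ▸ (relIndex_mul_relIndex H _ _ le_sup_right (sup_le hK hH)).symm⟩

theorem e2_plus {q : ℕ} (hq : 2 ≤ q) (ho : Odd q) {m : ℕ} (hm : 1 ≤ m) :
    E2 (2 ^ (2 * (m / 2)) * (2 * q ^ (m * (m - 1)) * (q ^ m - 1) * ∏ i ∈ Finset.range (m - 1), (q ^ (2 * (i + 1)) - 1)))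
      ((q - 1) ^ m * (2 ^ m * m.factorial) * (q + 1) ^ (2 * (m / 2))) := by
  obtain ⟨c, hc⟩ := id ho
  have h0 : ∀ k, q ^ (k + 1) - 1 ≠ 0 := fun k => Nat.sub_ne_zero_of_lt (Nat.one_lt_pow k.succ_ne_zero hq)
  have h1 : ∀ j, E2 (q ^ (2 * (j + 1)) - 1) ((q - 1) * (q + 1) * (j + 1)) := fun j => by
    refine e2_pow (x := (q : ℤ) ^ 2) (y := 1) ⟨c * (c + 1), by rw [hc]; push_cast; ring⟩
      (fun h => odd_int ho (Int.prime_two.dvd_of_dvd_pow h)) (j + 1) ?_ ?_ (h0 (2 * j + 1))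
      (Nat.mul_ne_zero (Nat.mul_ne_zero (by omega) (by omega)) (by omega))
    · rw [Nat.cast_sub (Nat.one_le_pow _ _ (by omega)), one_pow, ← pow_mul]
      push_cast
      rfl
    · rw [Nat.cast_mul, Nat.cast_mul, Nat.cast_sub (by omega)]
      push_cast
      ring
  have h2 : ∀ k, E2 (∏ i ∈ Finset.range k, (q ^ (2 * (i + 1)) - 1)) (((q - 1) * (q + 1)) ^ k * k.factorial) := fun k => by
    have h3 := E2.prod (s := Finset.range k) fun i _ => h1 i
    rwa [Finset.prod_mul_distrib, Finset.prod_const, Finset.card_range, Finset.prod_range_add_one_eq_factorial] at h3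
  have h3 : E2 (2 * q ^ (m * (m - 1))) 2 := E2.mul_odd ho.pow
  obtain ⟨k, rfl | rfl⟩ : ∃ k, m = 2 * k + 1 ∨ m = 2 * (k + 1) := ⟨(m - 1) / 2, by omega⟩
  · have h4 : E2 (q ^ (2 * k + 1) - 1) (q - 1) :=
      e2_pow_odd (x := q) (y := 1) ⟨c, by rw [hc]; push_cast; ring⟩ (odd_int ho) (k := 2 * k + 1) ⟨k, rfl⟩
        (by rw [Nat.cast_sub (Nat.one_le_pow _ _ (by omega)), one_pow]; push_cast; rfl)
        (by rw [Nat.cast_sub (by omega)]; rfl) (h0 _) (by omega)
    refine ((E2.refl _).mul ((h3.mul h4).mul (h2 _))).trans ⟨2 * k + 1, 1, ⟨k, rfl⟩, odd_one, ?_⟩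
    rw [show (2 * k + 1) / 2 = k by omega, Nat.add_sub_cancel, Nat.factorial_succ, mul_pow (q - 1)]
    ring
  · refine ((E2.refl _).mul ((h3.mul (h1 k)).mul (h2 _))).trans ⟨1, 1, odd_one, odd_one, ?_⟩
    rw [show 2 * (k + 1) / 2 = k + 1 by omega, show 2 * (k + 1) - 1 = 2 * k + 1 by omega,
      show (2 * (k + 1)).factorial = (2 * k + 1 + 1) * (2 * k + 1).factorial from rfl, mul_pow (q - 1)]
    ring

variable {F : Type} [Field F] {m : ℕ}

theorem card_cen (hm : 1 ≤ m) :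
    Nat.card (centralizer {(Equiv.sumComm (Fin m) (Fin m) : Equiv.Perm (Fin m ⊕ Fin m))}) = 2 ^ m * m.factorial := by
  have h1 := Equiv.Perm.cycleType_of_pow_prime_eq_one (σ := Equiv.sumComm (Fin m) (Fin m)) (p := 2)
    (Equiv.ext fun x => Sum.swap_swap x)
  have h2 := Equiv.Perm.sum_cycleType (Equiv.sumComm (Fin m) (Fin m))
  rw [Finset.eq_univ_iff_forall.2 fun x => Equiv.Perm.mem_support.2 (by rcases x with x | x <;> exact nofun),
    Finset.card_univ] at h2
  have h3 := h2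
  rw [h1, Multiset.sum_replicate, smul_eq_mul, Fintype.card_sum, Fintype.card_fin] at h3
  rw [Equiv.Perm.nat_card_centralizer, h2, h1, show Multiset.card _ = m by omega, Nat.sub_self, Nat.factorial_zero, one_mul,
    Multiset.prod_replicate, Multiset.toFinset_replicate, if_neg (by omega), Finset.prod_singleton,
    Multiset.count_replicate_self]

variable (F) in
/-- permutation matrices -/
def rho (ι : Type) : Equiv.Perm ι →* ((ι → F) ≃ₗ[F] (ι → F)) :=
  MonoidHom.mk' (fun σ => LinearEquiv.funCongrLeft F F σ.symm) fun _ _ => rfl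

theorem rho_apply {ι : Type} (σ : Equiv.Perm ι) (v : ι → F) (j : ι) : rho F ι σ v j = v (σ.symm j) := rfl

variable (F m) in
/-- diagonal matrices -/
def del : (Fin m → Fˣ) →* ((Fin m ⊕ Fin m → F) ≃ₗ[F] (Fin m ⊕ Fin m → F)) :=
  MonoidHom.mk' (fun d => LinearEquiv.piCongrRight fun j => LinearEquiv.smulOfUnit (Sum.elim d d⁻¹ j)) fun d e =>
    LinearEquiv.ext fun v => funext fun j => by
      show Sum.elim (d * e) (d * e)⁻¹ j • v j = Sum.elim d d⁻¹ j • Sum.elim e e⁻¹ j • v j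
      rw [smul_smul, mul_inv]
      rcases j with j | j <;> rfl

theorem del_apply (d : Fin m → Fˣ) (v : Fin m ⊕ Fin m → F) (j : Fin m ⊕ Fin m) :
    del F m d v j = (Sum.elim d d⁻¹ j : Fˣ) * v j := rfl

/-- signed indices -/
def ix (m : ℕ) : Fin m × Bool ≃ Fin m ⊕ Fin m where
  toFun x := cond x.2 (Sum.inl x.1) (Sum.inr x.1)
  invFun := Sum.elim (·, true) (·, false)
  left_inv := by rintro ⟨i, _ | _⟩ <;> rfl
  right_inv := by rintro (i | i) <;> rfl

theorem b_eq (x : Fin m × Bool) : (toFrame (wplus m F)).b x = Pi.single (ix m x) 1 := by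
  rcases x with ⟨i, _ | _⟩ <;> rfl

theorem mono_rho (σ : Equiv.Perm (Fin m ⊕ Fin m)) :
    Mono (toFrame (wplus m F)) (rho F _ σ) ((ix m).symm.permCongr σ) := fun x => ⟨1, one_ne_zero, funext fun j => by
  rw [one_smul, b_eq, b_eq, rho_apply, Equiv.permCongr_apply, Equiv.apply_symm_apply, Equiv.symm_symm, Pi.single_apply,
    Pi.single_apply]
  exact if_congr σ.symm_apply_eq rfl rfl⟩

theorem rho_mem (h2 : (2 : F) ≠ 0) {σ : Equiv.Perm (Fin m ⊕ Fin m)}
    (hσ : σ ∈ centralizer {(Equiv.sumComm (Fin m) (Fin m) : Equiv.Perm (Fin m ⊕ Fin m))}) :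
    rho F _ σ ∈ O (plusForm m F) := fun v => by
  have h1 : ∀ v : Fin m ⊕ Fin m → F, 2 * plusForm m F v = ∑ j, v j * v j.swap := fun v => by
    rw [coe_plusForm, quadFormPlus_apply, Fintype.sum_sum_type, two_mul]
    exact congrArg _ (Finset.sum_congr rfl fun _ _ => mul_comm _ _)
  refine mul_left_cancel₀ h2 ?_
  rw [h1, h1, ← Equiv.sum_comp σ]
  refine Finset.sum_congr rfl fun j _ => ?_
  have h3 : (σ j).swap = σ j.swap := (Equiv.congr_fun (mem_centralizer_singleton_iff.1 hσ) j).symm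
  rw [h3, rho_apply, rho_apply, σ.symm_apply_apply, σ.symm_apply_apply]

theorem del_mem (d : Fin m → Fˣ) : del F m d ∈ Tor (toFrame (wplus m F)) (O (plusForm m F)) := by
  refine ⟨fun v => ?_, fun x => ⟨_, (Sum.elim d d⁻¹ (ix m x)).ne_zero, funext fun j => ?_⟩⟩
  · rw [coe_plusForm, quadFormPlus_apply, quadFormPlus_apply]
    refine Finset.sum_congr rfl fun i _ => ?_
    rw [del_apply, del_apply, mul_mul_mul_comm, ← Units.val_mul, Sum.elim_inl, Sum.elim_inr, Pi.inv_apply, mul_inv_cancel,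
      Units.val_one, one_mul]
  · rw [id, b_eq, del_apply, Pi.smul_apply, smul_eq_mul]
    by_cases h : j = ix m x
    · rw [h]
    · rw [Pi.single_eq_of_ne h, mul_zero, mul_zero]

variable [Fintype F]

theorem finite_lin : Finite ((Fin m ⊕ Fin m → F) ≃ₗ[F] (Fin m ⊕ Fin m → F)) :=
  Finite.of_injective _ (DFunLike.coe_injective (F := (Fin m ⊕ Fin m → F) ≃ₗ[F] (Fin m ⊕ Fin m → F)))

theorem norm_tor {G0 : Subgroup ((Fin m ⊕ Fin m → F) ≃ₗ[F] (Fin m ⊕ Fin m → F))}
    {g : (Fin m ⊕ Fin m → F) ≃ₗ[F] (Fin m ⊕ Fin m → F)} (hg : ∀ k ∈ G0, g * k * g⁻¹ ∈ G0) {π : Equiv.Perm (Fin m × Bool)}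
    (hm : Mono (toFrame (wplus m F)) g π) : g ∈ normalizer (Tor (toFrame (wplus m F)) G0 : Set _) :=
  haveI := finite_lin (F := F) (m := m)
  mem_normalizer_fintype fun t ht =>
    ⟨hg t ht.1, ((hm.mul ht.2).mul (hm.inv π.apply_symm_apply)).congr π.apply_symm_apply⟩

/-- **The index of the monomial group.** -/
theorem exists_idx (h2 : (2 : F) ≠ 0) (ho : Odd (Fintype.card F)) (hm : 1 ≤ m) :
    ∃ N ≤ normalizer (Tor (toFrame (wplus m F)) (E (plusForm m F)) : Set _), ∃ v, Odd v ∧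
      2 ^ (2 * (m / 2)) * N.relIndex (E (plusForm m F)) ∣ (Fintype.card F + 1) ^ (2 * (m / 2)) * v := by
  have := finite_lin (F := F) (m := m)
  let D := Tor (toFrame (wplus m F)) (O (plusForm m F))
  let P := (centralizer {(Equiv.sumComm (Fin m) (Fin m) : Equiv.Perm (Fin m ⊕ Fin m))}).map (rho F _)
  have h0 : ∀ σ, rho F _ σ ∈ D → σ = 1 := fun σ h => Equiv.ext fun j => by
    obtain ⟨x, rfl⟩ := (ix m).surjective j
    obtain ⟨l, -, e⟩ := h.2 x
    have h1 := congrFun e (σ (ix m x))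
    rw [id, b_eq, rho_apply, σ.symm_apply_apply, Pi.single_eq_same, Pi.smul_apply] at h1
    by_contra h3
    rw [Pi.single_eq_of_ne (i := ix m x) h3, smul_zero] at h1
    exact one_ne_zero h1
  have hP : P ≤ O (plusForm m F) := map_le_iff_le_comap.2 fun _ => rho_mem h2
  have hN : D ⊔ P ≤ O (plusForm m F) := sup_le (fun _ h => h.1) hP
  have h1 := ClosedExc.Prod.card_sup_mul' (K := D) (H := P) (by
    rintro _ ⟨σ, hσ, rfl⟩
    exact norm_tor (fun k hk => mul_mem (mul_mem (rho_mem h2 hσ) hk) (inv_mem (rho_mem h2 hσ))) (mono_rho σ))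
  rw [show D ⊓ P = ⊥ from eq_bot_iff.2 (by
      rintro _ ⟨h, σ, -, rfl⟩
      rw [h0 σ h, map_one]
      exact one_mem _), card_bot, mul_one,
    card_map_of_injective ((injective_iff_map_eq_one _).2 fun σ h => h0 σ (h ▸ one_mem D)), card_cen hm] at h1
  obtain ⟨c, hc⟩ := card_dvd_of_injective ((del F m).codRestrict D del_mem) fun d e h => funext fun i => Units.ext (by
    have h3 := congrFun (LinearEquiv.congr_fun (congrArg Subtype.val h) 1) (Sum.inl i)
    exact (mul_one _).symm.trans (h3.trans (mul_one _)))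
  rw [Nat.card_fun, Nat.card_units, Nat.card_eq_fintype_card (α := F), Nat.card_eq_fintype_card (α := Fin m),
    Fintype.card_fin] at hc
  have h3 := relIndex_mul_relIndex ⊥ _ _ bot_le hN
  rw [relIndex_bot_left, relIndex_bot_left, ← isometryHom_range,
    ← Nat.card_congr (MonoidHom.ofInjective (isometryHom_injective (plusForm m F))).toEquiv, isometryHom_range,
    coe_plusForm, S0287.result rfl m hm, h1, hc] at h3
  obtain ⟨u, v, -, hv, e⟩ := e2_plus Fintype.one_lt_card ho hm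
  refine ⟨D ⊔ P, sup_le (fun g hg => norm_tor (π := 1) (fun k => conj_mem_E hg.1) hg.2) ?_, v, hv,
    (mul_dvd_mul_left _ (relIndex_dvd E_le_O hN fun g hg => mem_normalizer_fintype fun k => conj_mem_E (hN hg))).trans
      ⟨c * u, Nat.eq_of_mul_eq_mul_left (n := (Fintype.card F - 1) ^ m * (2 ^ m * m.factorial)) ?_ ?_⟩⟩
  · rintro _ ⟨σ, hσ, rfl⟩
    exact norm_tor (fun k => conj_mem_E (rho_mem h2 hσ)) (mono_rho σ)
  · have := Fintype.one_lt_card (α := F)
    exact Nat.mul_pos (Nat.pow_pos (by omega)) (Nat.mul_pos (Nat.pow_pos two_pos) m.factorial_pos)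
  · rw [← mul_assoc, ← e, ← h3]
    ring

end Cfsg.Agent.MK.GDp
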