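import Cfsg.Agent.MK.GD.Mon
import Cfsg.Agent.MK.G.Count
import Cfsg.Agent.ODD.PW.Rows
import Cfsg.Agent.ODD.Cov.E6
import Cfsg.Agent.GAL.Nrm.Dg
import Cfsg.Agent.S0296

/-!
# MK, the row of `PΩ⁺_{2m}(q)`, `q` odd (helper76)

`lc_of_bf`, `exists_frame`, **`row_plus`**.
-/

set_option autoImplicit false
set_option linter.unusedSectionVars false

namespace Cfsg.Agent.MK.GDp

open Cfsg Subgroup CoxeterSystem Cfsg.Agent.ChevalleyStructure.CoxeterGeom Cfsg.Agent.Tits.Roots Cfsg.Agent.Nodes.Reps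
  Cfsg.Agent.Nodes.BNOf Cfsg.Agent.Nodes.Bruhat Cfsg.Agent.ClosedExc.Frame Cfsg.Agent.ODD.QB Cfsg.Agent.MK.G
  Cfsg.Agent.Nodes Cfsg.Agent.ODD

section gen

variable {I W Y : Type} [Fintype I] [DecidableEq I] [Group W] [Finite W] [Group Y] [Finite Y]
  {M : CoxeterMatrix I} {cs : CoxeterSystem M W} {A : I → I → ℤ} {h : IsCartan M A} {p : ℕ} {T : Subgroup Y}
  {n : I → Y} {X : (I → ℤ) → Subgroup Y}

theorem bf_smul (C : I → I → ℤ) (x y : I → ℤ) (c : ℤ) : bf C x (c • y) = c * bf C x y := by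
  have h1 := bf_sub C x y y (1 - c)
  rw [sub_smul, one_smul, sub_sub_cancel] at h1
  linear_combination h1

theorem bf_neg (C : I → I → ℤ) (x y : I → ℤ) : bf C x (-y) = -bf C x y := by
  rw [← neg_one_smul ℤ y, bf_smul, neg_one_mul]

theorem comm_of_bf (R : RGD cs h p T n X) (hA : ∀ i j, A i j = A j i) {x y : I → ℤ} (hx : IsRoot cs h x)
    (hy : IsRoot cs h y) (h0 : bf A x y = 0) : X y ≤ centralizer (X x : Set Y) := by
  intro v hv u hu
  have h1 := bf_root hA hx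
  have h2 := R.comm x y hx hy (by rintro rfl; omega) (by
    rintro rfl
    rw [bf_neg, h0] at h1
    omega) u hu v hv
  refine commutatorElement_eq_one_iff_mul_comm.1 (mem_bot.1 ((iSup_le ?_ : btw cs h X x y ≤ ⊥) h2))
  rintro ⟨z, hz, m, a, b, hm, ha, hb, e⟩
  have h3 : ∀ w, m * bf A w z = a * bf A w x + b * bf A w y := fun w => by
    rw [← bf_smul, e, ← sub_neg_eq_add, ← neg_smul, bf_sub, bf_smul]
    ring
  have h4 := h3 x
  have h5 := h3 y
  have h6 := h3 z
  rw [h1, h0] at h4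
  rw [bf_comm hA y x, h0, bf_root hA hy] at h5
  rw [bf_root hA hz, bf_comm hA z, bf_comm hA z] at h6
  generalize bf A x z = s at h4 h6
  generalize bf A y z = t at h5 h6
  have h7 : s * s + t * t = 4 := mul_left_cancel₀ hm.ne' (by linear_combination s * h4 + t * h5 - 2 * h6)
  have h8 : 0 < s := pos_of_mul_pos_right (by omega : 0 < m * s) hm.le
  have h9 : 0 < t := pos_of_mul_pos_right (by omega : 0 < m * t) hm.le
  obtain rfl : s = 1 := le_antisymm (by nlinarith) h8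
  obtain rfl : t = 1 := le_antisymm (by nlinarith) h9
  omega

/-- **orthogonal roots in the simply laced case** -/
theorem lc_of_bf (R : RGD cs h p T n X) (hA : ∀ i j, A i j = A j i) {x y : I → ℤ} (hx : IsRoot cs h x)
    (hy : IsRoot cs h y) (h0 : bf A x y = 0) : LC X x y := fun u hu v hv => by
  have h1 : ∀ {x}, IsRoot cs h x → bf A x y = 0 → X x ≤ centralizer (FreeTorus.LL X y : Set Y) := fun hx h0 =>
    le_centralizer_iff.1 (sup_le (comm_of_bf R hA hx hy h0) (comm_of_bf R hA hx hy.neg (by rw [bf_neg, h0, neg_zero])))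
  exact ((sup_le (h1 hx h0) (h1 hx.neg (by rw [bf_comm hA, bf_neg, bf_comm hA, h0, neg_zero])) :
    FreeTorus.LL X x ≤ _) hu v hv).symm

end gen

section typeD

open Cfsg.Agent.Nodes.TypeD
open Cfsg.Agent.Nodes.TypeC (wt ng wt_ng)

variable {n : ℕ}

theorem sum_wt (a : Fin n × Bool) (u : Fin n → ℤ) : ∑ k, wt a k * u k = (if a.2 then 1 else -1) * u a.1 :=
  single_dotProduct u _ a.1

theorem bf_ee (x y : Fin (n + 2) → ℤ) : bf (A n) x y = ∑ k, ee x k * ee y k := by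
  have h1 : ∀ i u, Cf i u = ∑ k, bt (n := n) i k * u k := fun i u => by
    show _ = ∑ k, (wt (i, true) k + wt (nx i) k) * u k
    simp only [add_mul, Finset.sum_add_distrib, sum_wt]
    unfold Cf nx
    split_ifs <;> simp_all [sub_eq_add_neg]
  have h2 : ∀ k, ee x k = ∑ i, x i * bt i k := fun k => Finset.sum_apply k _ _
  simp only [h2, Finset.sum_mul, mul_assoc]
  rw [Finset.sum_comm]
  refine Finset.sum_congr rfl fun i _ => ?_
  rw [← Finset.mul_sum, ← h1, Cf_ee]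
  rfl

/-- the scalar product of two signed indices -/
def dw (a c : Fin n × Bool) : ℤ := if (a.1 : ℕ) = c.1 then (if a.2 = c.2 then 1 else -1) else 0

theorem bf_of {x y : Fin (n + 2) → ℤ} {a b c d : Fin (n + 2) × Bool} (hx : ee x = wt a + wt b) (hy : ee y = wt c + wt d) :
    bf (A n) x y = dw a c + dw a d + dw b c + dw b d := by
  have h1 : ∀ a c : Fin (n + 2) × Bool, ∑ k, wt a k * wt c k = dw a c := by
    rintro ⟨i, s⟩ ⟨j, t⟩
    rw [sum_wt, TypeC.wt_apply]
    unfold dw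
    cases s <;> cases t <;> simp [Fin.ext_iff]
  simp only [bf_ee, hx, hy, Pi.add_apply, add_mul, mul_add, Finset.sum_add_distrib, h1]
  ring

theorem A_symm (i j : Fin (n + 2)) : A n i j = A n j i := by
  rw [A_apply, A_apply]
  exact if_congr eq_comm rfl (if_congr or_comm rfl rfl)

/-- **the frame** -/
theorem exists_frame {W : Type} [Group W] [Finite W] (cs : CoxeterSystem (M n) W) :
    ∃ β : Fin ((n + 2) / 2) × Bool → Fin (n + 2) → ℤ, (∀ a, IsRoot cs (isCartan n) (β a)) ∧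
      (∀ a b, a ≠ b → bf (A n) (β a) (β b) = 0) ∧ All cs (isCartan n) β := by
  choose β hr hβ using fun a : Fin ((n + 2) / 2) × Bool => rt_of_ok (cs := cs) (a := (⟨2 * a.1, by omega⟩, true))
    (b := (⟨2 * a.1 + 1, by omega⟩, a.2)) fun h => by simpa using congrArg Fin.val h
  refine ⟨β, hr, ?_, fun x hx => ?_⟩
  · rintro ⟨a, s⟩ ⟨b, t⟩ hab
    have h1 : (a : ℕ) = b → s ≠ t := fun h1 h2 => hab (Prod.ext (Fin.ext h1) h2)
    rw [bf_of (hβ _) (hβ _)]
    unfold dw
    dsimp only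
    rw [if_neg (by omega : 2 * (a : ℕ) ≠ 2 * b + 1), if_neg (by omega : 2 * (a : ℕ) + 1 ≠ 2 * b), if_pos rfl]
    by_cases h2 : (a : ℕ) = b
    · rw [if_pos (by omega), if_pos (by omega), if_neg (h1 h2)]
      rfl
    · rw [if_neg (by omega), if_neg (by omega)]
      rfl
  have key : ∀ u v : Fin (n + 2) × Bool, (u.1 : ℕ) < v.1 → ee x = wt u + wt v →
      (∃ b, x = β b ∨ x = -β b) ∨ ∃ b, Od cs (isCartan n) x (β b) := by
    rintro ⟨i, s⟩ ⟨j, t⟩ (hij : (i : ℕ) < j) e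
    have h1 : (i : ℕ) / 2 < (n + 2) / 2 := by have := j.2; omega
    by_cases h2 : (j : ℕ) / 2 = i / 2
    · have h3 : (⟨2 * (i / 2), by omega⟩ : Fin (n + 2)) = i := Fin.ext (by dsimp only; omega)
      have h4 : (⟨2 * (i / 2) + 1, by omega⟩ : Fin (n + 2)) = j := Fin.ext (by dsimp only; omega)
      refine Or.inl ?_
      cases s
      · exact ⟨(⟨_, h1⟩, !t), Or.inr (ee_injective (by
          rw [ee_neg, hβ, h3, h4, neg_add, ← wt_ng, ← wt_ng, e]
          cases t <;> rfl))⟩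
      · exact ⟨(⟨_, h1⟩, t), Or.inl (ee_injective (by rw [hβ, h3, h4, e]))⟩
    · refine Or.inr ⟨(⟨_, h1⟩, true), od_of_symm A_symm hx (hr _) ?_⟩
      rw [bf_of e (hβ _)]
      unfold dw
      dsimp only
      split_ifs <;> omega
  obtain ⟨u, v, huv, e⟩ := exists_of_isRoot cs hx
  rcases lt_or_gt_of_ne (fun h => huv (Fin.ext h) : (u.1 : ℕ) ≠ v.1) with h | h
  · exact key u v h e
  · exact key v u h (e.trans (add_comm _ _))

end typeD

open Cfsg.Agent.Nodes.WittInst Cfsg.Agent.TitsThree.WBridge Cfsg.Agent.LieClassical.OrthCore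
  Cfsg.Agent.LieClassical.OrthForms Cfsg.Agent.TitsThree.KSideO Cfsg.Agent.H69.OQ Cfsg.Agent.ODD.PW

/-- **`PΩ⁺_{2m}(q)`** -/
theorem gd_plus (hm : MainC) {F : Type} [Field F] [Fintype F] (hF : Odd (Fintype.card F)) {n p : ℕ} [Fact p.Prime]
    [CharP F p] (hp2 : p ≠ 2) (h2 : (2 : F) ≠ 0) (hn : 1 ≤ n) {Y : Type} [Group Y] [Finite Y]
    {f : Y →* POmega F (plusForm (n + 3) F)} (hf : Cv.CE p f) {Γ : Subgroup (MulAut Y)} (s : Sit Y Γ) : Gd Y Γ := by
  have : Finite (POmega F (plusForm (n + 3) F)) := Finite.of_surjective _ hf.surj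
  have := finD (n + 1)
  have := finite_lin (F := F) (m := n + 3)
  have : IsSimpleGroup (POmega F (plusForm (n + 3) F)) := by rw [coe_plusForm]; exact S0296.result _ (by omega)
  have hA := amb_plus (F := F) (n + 3)
  have R := rgd_plus (F := F) n p
  have hG := top_plus (F := F) n
  have hnf := nofix_plus n p h2
  have hinj : ∀ a b : Fin (n + 3) × Bool, a.1 ≠ b.1 → ∀ s s' : F,
      toPOmega (good_plus n) ⟨(toFrame (wplus (n + 3) F)).X a b s, hA.X_mem _ _ _⟩ =
        toPOmega (good_plus n) ⟨(toFrame (wplus (n + 3) F)).X a b s', hA.X_mem _ _ _⟩ → s = s' := by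
    intro a b hab s s' h
    obtain ⟨x, hx, ex⟩ := TypeD.rt_of_ok (cs := (TypeD.M (n + 1)).toCoxeterSystem) (a := a) (b := b) hab
    have h3 : ∀ s, (⟨(toFrame (wplus (n + 3) F)).X a b s, hA.X_mem _ _ _⟩ : E (plusForm (n + 3) F)) ∈
        (WittRGDD.rg (toFrame (wplus (n + 3) F)) x).subgroupOf (E (plusForm (n + 3) F)) := fun s => by
      rw [WittRGDD.rg_eq _ hab ex]
      exact ⟨s, rfl⟩
    exact X_injD hab (congrArg Subtype.val (mul_inv_eq_one.1 ((nofix_D _ hA (by omega) h2).inj _ (ker_toPOmega _) hx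
      (mul_mem (h3 s) (inv_mem (h3 s'))) (by rw [map_mul, map_inv, h, mul_inv_cancel]))))
  have hc : ∀ a ∈ ((WittRGD.Tor (toFrame (wplus (n + 3) F)) (E (plusForm (n + 3) F))).subgroupOf _).map
      (toPOmega (good_plus n)), ∀ b ∈ ((WittRGD.Tor (toFrame (wplus (n + 3) F)) (E (plusForm (n + 3) F))).subgroupOf _).map
      (toPOmega (good_plus n)), a * b = b * a := by
    rintro _ ⟨a, ha, rfl⟩ _ ⟨b, hb, rfl⟩
    rw [← map_mul, ← map_mul]
    exact congrArg _ (Subtype.ext (H716.RGDAb.tor_comm_of hA.V0 ha hb fun w hw => by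
      rw [(Submodule.mem_bot F).1 hw, map_zero, map_zero, map_zero]))
  obtain ⟨β, hr, ho, hall⟩ := exists_frame (TypeD.M (n + 1)).toCoxeterSystem
  have h3 : ∀ a, (∀ u ∈ XQ (toFrame (wplus (n + 3) F)) (toPOmega (good_plus n)) (β a),
      ∀ v ∈ XQ (toFrame (wplus (n + 3) F)) (toPOmega (good_plus n)) (β a), u * v = v * u) ∧
      Nat.card (XQ (toFrame (wplus (n + 3) F)) (toPOmega (good_plus n)) (β a)) = Fintype.card F := fun a => by
    obtain ⟨c, d, hcd, e⟩ := TypeD.exists_of_isRoot _ (hr a)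
    refine ⟨fun u hu v hv => ?_, ?_⟩
    · obtain ⟨s, rfl⟩ := (mem_XQ hA _ hcd e).1 hu
      obtain ⟨t, rfl⟩ := (mem_XQ hA _ hcd e).1 hv
      rw [← map_mul, ← map_mul]
      exact congrArg _ (Subtype.ext (((toFrame _).X_add _ _ _ _).symm.trans
        (add_comm s t ▸ (toFrame _).X_add _ _ _ _)))
    · rw [← Nat.card_eq_fintype_card]
      exact (Nat.card_eq_of_bijective (fun s => ⟨_, (mem_XQ hA _ hcd e).2 ⟨s, rfl⟩⟩)
        ⟨fun s t h => hinj _ _ hcd _ _ (congrArg Subtype.val h),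
          fun u => ((mem_XQ hA _ hcd e).1 u.2).imp fun _ h => Subtype.ext h.symm⟩).symm
  have D : F1 R β := f1_of_LC Fact.out hp2 hG hr (fun a b h => lc_of_bf R A_symm (hr a) (hr b) (ho a b h))
    fun a => (h3 a).1
  have hW := D.weyl_of_all hall
  refine hm R β (D.gd hW (syl_of_dg hG hc hnf (twFaithful_D hA _ hinj _ h2 R) (D.odd_MM hW fun j hj => ?_)
    (by rw [coe_plusForm]; exact GAL.Nrm.dg_plus hF (by omega)))
    (D.ne_of_two (a := (⟨0, by omega⟩, true)) (b := (⟨0, by omega⟩, false)) nofun)) (D.au_of_all hall) hc hnf Y f hf Γ s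
  obtain ⟨N, hN, v, hv, h4⟩ := exists_idx (m := n + 3) h2 hF (by omega)
  have h5 : (NP R ⊤).index ∣ N.relIndex (E (plusForm (n + 3) F)) := by
    refine (index_dvd_of_le ?_).trans (index_map_dvd _ (toPOmega_surjective (good_plus n)))
    rintro _ ⟨g, hg, rfl⟩
    obtain ⟨w, hw⟩ := H491.Sd.exists_rp_of_norm R hG (noFix_of R hnf) (g := toPOmega _ g)
      (le_normalizer_map _ ⟨g, le_normalizer_comap _ (hN hg), rfl⟩)
    exact ⟨w, mem_top w, hw⟩
  rw [← (NP R ⊤).card_mul_index, card_NP, card_top, mul_comm (Nat.card _) (Nat.card _)] at hj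
  rw [Finset.prod_congr rfl fun a _ => by rw [zc_eq (h3 a).1, (h3 a).2], Finset.prod_const, Finset.card_univ,
    Fintype.card_prod, Fintype.card_fin, Fintype.card_bool, mul_comm _ 2]
  refine (Nat.Coprime.pow_left _ (Nat.coprime_two_left.2 hv)).dvd_of_dvd_mul_right ?_
  rw [pow_add, mul_assoc]
  refine (mul_dvd_mul_right hj _).trans ?_
  rw [mul_assoc, mul_comm (NP R ⊤).index]
  exact mul_dvd_mul_left _ ((mul_dvd_mul_left _ h5).trans h4)

/-- **the row of `PΩ⁺_{2m}(q)`, `q` odd** -/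
theorem row_plus (hm : MainC) : Row PlusO := by
  intro X _ _ c Γ s
  obtain ⟨F, _, _, m, hF, h4, he⟩ := c.fam
  obtain ⟨e0⟩ := id he
  have hZ := Cv.center_eq_bot c ((Cv.mb_plus h4).congr e0)
  obtain ⟨n, rfl⟩ : ∃ n, m = n + 3 := ⟨m - 3, by omega⟩
  obtain ⟨p, _, _, hp2, h2⟩ := exists_char F hF
  replace he : Nonempty (X ⧸ center X ≃* POmega F (quadFormPlus (n + 3) F)) := he
  rw [← coe_plusForm] at he
  obtain ⟨e⟩ := he
  have := Finite.of_equiv _ e.toEquiv
  exact gd_plus hm hF hp2 h2 (by omega)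
    (Cv.ce_of c e Fact.out (m := 1) (by rw [hZ, card_bot]; exact one_dvd _) fun _ => by decide).1 s

end Cfsg.Agent.MK.GDp
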